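import Cfsg.Agent.Lib.H69.IC0
import Cfsg.Agent.Lib.H26.Quasisimple
import Cfsg.Agent.S0215

/-! S1315, piece P7. -/

set_option autoImplicit false
set_option linter.unusedSectionVars false
set_option linter.style.haveILetI false

open Subgroup Cfsg H26.LocalFitting H69.IC
open scoped commutatorElement

universe u

namespace H90.IcP7

variable {G : Type u} [Group G] [Finite G]

/-- the group `M⟨z⟩` -/
def Y (M : Subgroup G) (z : G) (hz : z * z = 1) (hn : ∀ m ∈ M, z * m * z ∈ M) : Subgroup G where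
  carrier := {y | y ∈ M ∨ y * z ∈ M}
  one_mem' := Or.inl (one_mem _)
  mul_mem' := by
    rintro a b (ha | ha) (hb | hb)
    · exact Or.inl (mul_mem ha hb)
    · right; rw [mul_assoc]; exact mul_mem ha hb
    · right
      have h1 := mul_mem ha (hn b hb)
      have : a * z * (z * b * z) = a * b * z := by
        calc a * z * (z * b * z) = a * (z * z) * b * z := by group
          _ = a * b * z := by rw [hz, mul_one]
      rwa [this] at h1
    · left
      have h1 := mul_mem ha (hn _ hb)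
      have : a * z * (z * (b * z) * z) = a * b := by
        calc a * z * (z * (b * z) * z) = a * (z * z) * b * (z * z) := by group
          _ = a * b := by rw [hz, mul_one, mul_one]
      rwa [this] at h1
  inv_mem' := by
    rintro a (ha | ha)
    · exact Or.inl (inv_mem ha)
    · right
      have h1 := hn _ (inv_mem ha)
      have hzi : z⁻¹ = z := inv_eq_of_mul_eq_one_left hz
      have : z * (a * z)⁻¹ * z = a⁻¹ * z := by
        rw [mul_inv_rev, hzi]
        calc z * (z * a⁻¹) * z = (z * z) * a⁻¹ * z := by group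
          _ = a⁻¹ * z := by rw [hz, one_mul]
      rwa [this] at h1

theorem zconj {M R : Subgroup G} (hM : IsQuasisimple M) (hO : pPrimeCore 2 ↥M = ⊥) {u z : G} (huM : u ∈ M)
    (hu : orderOf u = 2) (huniq : ∀ t ∈ M, orderOf t = 2 → t = u) (hz : orderOf z = 2) (hzu : z ≠ u)
    (hzM : z ∈ normalizer (M : Set G)) (hnt : ∃ m ∈ M, z * m ≠ m * z) (hR : IsPGroup 2 R) (hRM : R ≤ M)
    (hmax : ∀ Q : Subgroup G, IsPGroup 2 Q → R ≤ Q → Q ≤ M → Q = R) (hzR : z ∈ normalizer (R : Set G)) :
    ∃ j ∈ M, j * z * j⁻¹ * z⁻¹ ∈ R ∧ (j * z * j⁻¹ * z⁻¹) * (j * z * j⁻¹ * z⁻¹) = u := by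
  haveI : Fact (Nat.Prime 2) := ⟨Nat.prime_two⟩
  have hzz : z * z = 1 := by rw [← pow_two, ← hz, pow_orderOf_eq_one]
  have huu : u * u = 1 := by rw [← pow_two, ← hu, pow_orderOf_eq_one]
  have hzi : z⁻¹ = z := inv_eq_of_mul_eq_one_left hzz
  have hz1 : z ≠ 1 := by rintro rfl; rw [orderOf_one] at hz; omega
  have hu1 : u ≠ 1 := by rintro rfl; rw [orderOf_one] at hu; omega
  have hn : ∀ m ∈ M, z * m * z ∈ M := by
    intro m hm
    have := (mem_normalizer_iff.mp hzM m).mp hm
    rwa [hzi] at this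
  have hord : ∀ t : G, t * t = 1 → t ≠ 1 → orderOf t = 2 := by
    intro t h1 h2
    exact orderOf_eq_prime (by rw [pow_two]; exact h1) h2
  have hcM : ∀ m ∈ M, m * u = u * m := by
    intro m hm
    have h1 : m * u * m⁻¹ = u := by
      apply huniq _ (mul_mem (mul_mem hm huM) (inv_mem hm))
      apply hord
      · calc m * u * m⁻¹ * (m * u * m⁻¹) = m * (u * u) * m⁻¹ := by group
          _ = 1 := by rw [huu]; group
      · intro h1
        apply hu1
        calc u = m⁻¹ * (m * u * m⁻¹) * m := by group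
          _ = 1 := by rw [h1]; group
    exact mul_inv_eq_iff_eq_mul.mp h1
  have hcz : z * u = u * z := by
    have h1 : z * u * z = u := by
      apply huniq _ (hn u huM)
      apply hord
      · calc z * u * z * (z * u * z) = z * u * (z * z) * u * z := by group
          _ = z * (u * u) * z := by rw [hzz]; group
          _ = 1 := by rw [huu, mul_one, hzz]
      · intro h1
        apply hu1
        calc u = (z * z) * u * (z * z) := by rw [hzz]; group
          _ = z * (z * u * z) * z := by group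
          _ = 1 := by rw [h1, mul_one, hzz]
    calc z * u = (z * u * z) * z := by rw [mul_assoc (z * u) z z, hzz, mul_one]
      _ = u * z := by rw [h1]
  -- it suffices to find `m ∈ M` with `m z m⁻¹ z⁻¹ ∈ R` outside `⟨u⟩`
  suffices hs : ∃ m ∈ M, m * z * m⁻¹ * z⁻¹ ∈ R ∧ m * z * m⁻¹ * z⁻¹ ≠ 1 ∧ m * z * m⁻¹ * z⁻¹ ≠ u by
    obtain ⟨m, hm, hcR, hc1, hcu⟩ := hs
    set c := m * z * m⁻¹ * z⁻¹ with hc
    have hinv : z * c * z⁻¹ = c⁻¹ := by
      rw [hc, hzi]
      calc z * (m * z * m⁻¹ * z) * z = z * m * z * m⁻¹ * (z * z) := by group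
        _ = z * m * z * m⁻¹ := by rw [hzz, mul_one]
        _ = z⁻¹ * m * z⁻¹ * m⁻¹ := by rw [hzi]
        _ = (m * z * m⁻¹ * z)⁻¹ := by group
    have hinvi : ∀ i : ℕ, z * (c ^ i)⁻¹ * z⁻¹ = c ^ i := by
      intro i
      have h1 : z * (c ^ i)⁻¹ * z⁻¹ = ((z * c * z⁻¹) ^ i)⁻¹ := by
        rw [conj_pow]; group
      rw [h1, hinv, inv_pow, inv_inv]
    obtain ⟨l, hl⟩ := (IsPGroup.iff_orderOf.mp hR) ⟨c, hcR⟩
    rw [Subgroup.orderOf_mk] at hl
    have hcM' : c ∈ M := hRM hcR
    have hl2 : 2 ≤ l := by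
      by_contra hlt
      have : l = 0 ∨ l = 1 := by omega
      rcases this with rfl | rfl
      · rw [pow_zero, orderOf_eq_one_iff] at hl
        exact hc1 hl
      · rw [pow_one] at hl
        exact hcu (huniq c hcM' hl)
    have htop : c ^ (2 ^ (l - 1)) = u := by
      apply huniq _ (pow_mem hcM' _)
      rw [orderOf_pow, hl]
      have h1 : 2 ^ l = 2 ^ (l - 1) * 2 := by rw [← pow_succ]; congr 1; omega
      rw [h1, Nat.gcd_mul_right_left]
      exact Nat.mul_div_cancel_left 2 (by positivity)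
    rcases Nat.lt_or_ge 2 l with h3 | h3
    · refine ⟨c ^ (2 ^ (l - 3)), pow_mem hcM' _, ?_, ?_⟩
      · have h4 : c ^ 2 ^ (l - 3) * z * (c ^ 2 ^ (l - 3))⁻¹ * z⁻¹ = c ^ 2 ^ (l - 3) * (z * (c ^ 2 ^ (l - 3))⁻¹ * z⁻¹) := by group
        rw [h4, hinvi]
        exact mul_mem (pow_mem hcR _) (pow_mem hcR _)
      · have h4 : c ^ 2 ^ (l - 3) * z * (c ^ 2 ^ (l - 3))⁻¹ * z⁻¹ = c ^ 2 ^ (l - 3) * (z * (c ^ 2 ^ (l - 3))⁻¹ * z⁻¹) := by group
        rw [h4, hinvi, ← pow_add, ← pow_add, ← htop]
        congr 1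
        have h5 : l - 1 = (l - 3) + 2 := by omega
        rw [h5, pow_add]; ring
    · have h4 : l = 2 := by omega
      subst h4
      refine ⟨m, hm, hcR, ?_⟩
      have h5 : c ^ (2 ^ (2 - 1)) = c * c := by norm_num [pow_two]
      rw [← h5]; exact htop
  -- the quotient of `M⟨z⟩` by `⟨u⟩`
  let YY : Subgroup G := Y M z hzz hn
  have hMY : M ≤ YY := fun m hm => Or.inl hm
  have hzY : z ∈ YY := Or.inr (by rw [hzz]; exact one_mem _)
  have hYmem : ∀ y ∈ YY, ∃ m ∈ M, y * z * y⁻¹ = m * z * m⁻¹ := by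
    rintro y (hy | hy)
    · exact ⟨y, hy, rfl⟩
    · refine ⟨y * z, hy, ?_⟩
      calc y * z * y⁻¹ = y * z * z * z⁻¹ * y⁻¹ := by group
        _ = y * z * z * (y * z)⁻¹ := by group
  have hcY : ∀ y ∈ YY, y * u = u * y := by
    rintro y (hy | hy)
    · exact hcM y hy
    · have h1 := hcM _ hy
      calc y * u = y * (z * z) * u := by rw [hzz, mul_one]
        _ = y * z * (z * u) := by group
        _ = (y * z * u) * z := by rw [hcz]; group
        _ = u * y * (z * z) := by rw [h1]; group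
        _ = u * y := by rw [hzz, mul_one]
  let U : Subgroup YY := (zpowers u).subgroupOf YY
  have hUmem : ∀ y : YY, y ∈ U ↔ (y : G) = 1 ∨ (y : G) = u := by
    intro y
    rw [Subgroup.mem_subgroupOf]
    constructor
    · intro h
      obtain ⟨i, hi⟩ := mem_zpowers_iff.mp h
      rcases Int.even_or_odd' i with ⟨k, rfl | rfl⟩
      · left; rw [← hi, zpow_mul, zpow_two, huu, one_zpow]
      · right; rw [← hi, zpow_add, zpow_mul, zpow_two, huu, one_zpow, one_mul, zpow_one]
    · rintro (h | h)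
      · rw [h]; exact one_mem _
      · rw [h]; exact mem_zpowers u
  haveI hUn : U.Normal := by
    refine ⟨fun x hx g => ?_⟩
    rw [hUmem] at hx ⊢
    rcases hx with hx | hx
    · left
      show (g : G) * x * (g : G)⁻¹ = 1
      rw [hx]; group
    · right
      show (g : G) * x * (g : G)⁻¹ = u
      rw [hx, hcY g g.2]; group
  let π : YY →* YY ⧸ U := QuotientGroup.mk' U
  let zb : YY ⧸ U := π ⟨z, hzY⟩
  have hzb : orderOf zb = 2 := by
    apply orderOf_eq_prime
    · rw [pow_two, ← map_mul]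
      have : (⟨z, hzY⟩ * ⟨z, hzY⟩ : YY) = 1 := Subtype.ext hzz
      rw [this, map_one]
    · intro h
      have h1 : (⟨z, hzY⟩ : YY) ∈ U := (QuotientGroup.eq_one_iff _).mp h
      rcases (hUmem _).mp h1 with h2 | h2
      · exact hz1 h2
      · exact hzu h2
  -- Sylow subgroup
  have hP : IsPGroup 2 (R ⊔ zpowers z : Subgroup G) := by
    have h1 : IsPGroup 2 (zpowers z) := by
      apply IsPGroup.of_card (n := 1)
      rw [Nat.card_zpowers, hz, pow_one]
    exact hR.to_sup_of_normal_left' h1 (zpowers_le.mpr hzR)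
  have hP2 : IsPGroup 2 (((R ⊔ zpowers z).subgroupOf YY).map π) := by
    apply IsPGroup.map
    exact hP.comap_of_injective YY.subtype Subtype.val_injective
  obtain ⟨T, hT⟩ := hP2.exists_le_sylow
  have hzT : zb ∈ T := hT ⟨⟨z, hzY⟩, (mem_sup_right (mem_zpowers z)), rfl⟩
  have hUp : IsPGroup 2 π.ker := by
    intro x
    refine ⟨1, ?_⟩
    have hx : (x : YY) ∈ U := by
      have h1 : π x = 1 := x.2
      exact (QuotientGroup.eq_one_iff _).mp h1
    apply Subtype.ext
    apply Subtype.ext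
    show ((x : YY) : G) ^ (2 ^ 1) = 1
    rcases (hUmem _).mp hx with h | h
    · rw [h, one_pow]
    · rw [h, pow_one, pow_two, huu]
  have hQp : IsPGroup 2 (((T : Subgroup (YY ⧸ U)).comap π).map YY.subtype) := by
    apply IsPGroup.map
    exact T.2.comap_of_ker_isPGroup π hUp
  have hQM : (((T : Subgroup (YY ⧸ U)).comap π).map YY.subtype) ⊓ M = R := by
    apply hmax _ (hQp.to_le inf_le_left) _ inf_le_right
    intro x hx
    refine ⟨⟨⟨x, hMY (hRM hx)⟩, ?_, rfl⟩, hRM hx⟩
    exact hT ⟨⟨x, hMY (hRM hx)⟩, mem_sup_left hx, rfl⟩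
  by_cases hiso : ∀ g : YY ⧸ U, g * zb * g⁻¹ ∈ T → g * zb * g⁻¹ = zb
  · exfalso
    obtain ⟨N, hN, hNo, hNc⟩ := Cfsg.Agent.S0215.result T zb hzb hzT hiso
    let φ : ↥M →* YY ⧸ U := π.comp (Subgroup.inclusion hMY)
    haveI := hN
    haveI : (N.comap φ).Normal := inferInstance
    have hcomm : ∀ m : ↥M, (⟨z * (m : G) * z, hn m m.2⟩ : ↥M) * m⁻¹ ∈ N.comap φ := by
      intro m
      rw [mem_comap]
      have h1 := hNc (φ m)
      have h2 : φ (⟨z * (m : G) * z, hn m m.2⟩ * m⁻¹) = zb * φ m * zb⁻¹ * (φ m)⁻¹ := by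
        show π _ = π _ * π _ * (π _)⁻¹ * (π _)⁻¹
        rw [← map_inv, ← map_inv, ← map_mul, ← map_mul, ← map_mul]
        congr 1
        apply Subtype.ext
        show z * (m : G) * z * (m : G)⁻¹ = z * (m : G) * z⁻¹ * (m : G)⁻¹
        rw [hzi]
      rw [h2]; exact h1
    rcases H26.Quasisimple.normal_eq_top_or_le_center hM (N.comap φ) with h | h
    · -- `|M|` would be twice an odd number
      have hkmem : ∀ m : ↥M, m ∈ φ.ker ↔ (m : G) = 1 ∨ (m : G) = u := by
        intro m
        rw [MonoidHom.mem_ker]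
        have h1 : φ m = π (Subgroup.inclusion hMY m) := rfl
        rw [h1]
        exact (QuotientGroup.eq_one_iff _).trans (hUmem _)
      have hkp : IsPGroup 2 φ.ker := by
        intro x
        refine ⟨1, ?_⟩
        apply Subtype.ext
        apply Subtype.ext
        show ((x : ↥M) : G) ^ (2 ^ 1) = 1
        rcases (hkmem _).mp x.2 with h1 | h1
        · rw [h1, one_pow]
        · rw [h1, pow_one, pow_two, huu]
      have hcop : (Nat.card φ.ker).Coprime φ.ker.index := by
        obtain ⟨k, hk⟩ := IsPGroup.iff_card.mp hkp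
        rw [hk, Subgroup.index_ker]
        apply Nat.Coprime.pow_left
        have h1 : Nat.card φ.range ∣ Nat.card N := by
          apply Subgroup.card_dvd_of_le
          rintro _ ⟨m, rfl⟩
          have : m ∈ N.comap φ := by rw [h]; exact mem_top m
          exact this
        exact (Nat.coprime_two_left.mpr hNo).coprime_dvd_right h1
      obtain ⟨K, hK⟩ := Subgroup.exists_right_complement'_of_coprime hcop
      have hcen : ∀ n ∈ φ.ker, ∀ x : ↥M, n * x = x * n := by
        intro n hn' x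
        apply Subtype.ext
        show (n : G) * x = x * n
        rcases (hkmem n).mp hn' with h1 | h1
        · rw [h1]; group
        · rw [h1]; exact (hcM x x.2).symm
      have hle : commutator ↥M ≤ K := by
        rw [commutator_def, Subgroup.commutator_le]
        intro a _ b _
        have ha : a ∈ (Set.univ : Set ↥M) := trivial
        have hb : b ∈ (Set.univ : Set ↥M) := trivial
        rw [← hK.mul_eq] at ha hb
        obtain ⟨n1, hn1, k1, hk1, rfl⟩ := ha
        obtain ⟨n2, hn2, k2, hk2, rfl⟩ := hb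
        have h1 : ⁅n1 * k1, n2 * k2⁆ = ⁅k1, k2⁆ := by
          rw [commutatorElement_def, commutatorElement_def]
          have e2 := hcen n2 hn2
          have e1 := hcen n1 hn1
          calc n1 * k1 * (n2 * k2) * (n1 * k1)⁻¹ * (n2 * k2)⁻¹ = n1 * k1 * (n2 * (k2 * k1⁻¹)) * n1⁻¹ * k2⁻¹ * n2⁻¹ := by group
            _ = n1 * k1 * (k2 * k1⁻¹ * n2) * n1⁻¹ * k2⁻¹ * n2⁻¹ := by rw [e2]
            _ = (n1 * (k1 * k2 * k1⁻¹ * n2)) * n1⁻¹ * k2⁻¹ * n2⁻¹ := by group
            _ = (k1 * k2 * k1⁻¹ * n2 * n1) * n1⁻¹ * k2⁻¹ * n2⁻¹ := by rw [e1]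
            _ = k1 * k2 * k1⁻¹ * (n2 * k2⁻¹) * n2⁻¹ := by group
            _ = k1 * k2 * k1⁻¹ * (k2⁻¹ * n2) * n2⁻¹ := by rw [e2]
            _ = k1 * k2 * k1⁻¹ * k2⁻¹ := by group
        rw [h1, commutatorElement_def]
        exact mul_mem (mul_mem (mul_mem hk1 hk2) (inv_mem hk1)) (inv_mem hk2)
      rw [H26.Quasisimple.commutator_eq_top hM, top_le_iff] at hle
      have h2 : (⟨u, huM⟩ : ↥M) ∈ φ.ker ⊓ K := by
        refine mem_inf.mpr ⟨(hkmem _).mpr (Or.inr rfl), ?_⟩
        rw [hle]; exact mem_top _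
      rw [hK.disjoint.eq_bot, mem_bot] at h2
      exact hu1 (congrArg Subtype.val h2)
    · -- `z` centralizes `M`
      let f : ↥M →* center ↥M :=
        { toFun := fun m => ⟨(⟨z * (m : G) * z, hn m m.2⟩ : ↥M) * m⁻¹, h (hcomm m)⟩
          map_one' := by
            apply Subtype.ext
            apply Subtype.ext
            show z * 1 * z * (1 : G)⁻¹ = 1
            rw [mul_one, hzz]; group
          map_mul' := by
            intro a b
            apply Subtype.ext
            have hb : (⟨z * (b : G) * z, hn b b.2⟩ : ↥M) * b⁻¹ ∈ center ↥M := h (hcomm b)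
            have h1 := congrArg Subtype.val (Subgroup.mem_center_iff.mp hb a⁻¹)
            have h1' : (a : G)⁻¹ * (z * (b : G) * z * (b : G)⁻¹) = z * (b : G) * z * (b : G)⁻¹ * (a : G)⁻¹ := h1
            apply Subtype.ext
            show z * ((a : G) * b) * z * ((a : G) * b)⁻¹ = (z * (a : G) * z * (a : G)⁻¹) * (z * (b : G) * z * (b : G)⁻¹)
            calc z * ((a : G) * b) * z * ((a : G) * b)⁻¹ = z * a * (1 : G) * b * z * (b : G)⁻¹ * (a : G)⁻¹ := by group
              _ = z * a * (z * z) * b * z * (b : G)⁻¹ * (a : G)⁻¹ := by rw [hzz]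
              _ = z * a * z * (z * (b : G) * z * (b : G)⁻¹ * (a : G)⁻¹) := by group
              _ = z * a * z * ((a : G)⁻¹ * (z * (b : G) * z * (b : G)⁻¹)) := by rw [h1']
              _ = (z * (a : G) * z * (a : G)⁻¹) * (z * (b : G) * z * (b : G)⁻¹) := by group }
      obtain ⟨m, hm, hzm⟩ := hnt
      apply hzm
      have h2 : commutator ↥M ≤ f.ker := by
        rw [commutator_def, Subgroup.commutator_le]
        intro a _ b _
        rw [MonoidHom.mem_ker, map_commutatorElement, commutatorElement_eq_one_iff_mul_comm]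
        apply Subtype.ext
        exact (mem_center_iff.mp (f a).2 (f b : ↥M)).symm
      rw [H26.Quasisimple.commutator_eq_top hM] at h2
      have h3 : f ⟨m, hm⟩ = 1 := h2 (mem_top _)
      have h4 : z * m * z * m⁻¹ = 1 := congrArg (fun x : center ↥M => ((x : ↥M) : G)) h3
      have h5 : z * m * z = m := mul_inv_eq_one.mp h4
      calc z * m = z * m * (z * z) := by rw [hzz, mul_one]
        _ = (z * m * z) * z := by group
        _ = m * z := by rw [h5]
  · push Not at hiso
    obtain ⟨g, hg1, hg2⟩ := hiso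
    obtain ⟨y, rfl⟩ := QuotientGroup.mk'_surjective U g
    obtain ⟨m, hm, hym⟩ := hYmem y y.2
    have e1 : π y * zb * (π y)⁻¹ = π (y * ⟨z, hzY⟩ * y⁻¹) := by
      rw [map_mul, map_mul, map_inv]
    have hmem : (y : G) * z * (y : G)⁻¹ ∈ (((T : Subgroup (YY ⧸ U)).comap π).map YY.subtype) :=
      ⟨y * ⟨z, hzY⟩ * y⁻¹, by
        show π (y * ⟨z, hzY⟩ * y⁻¹) ∈ T
        rw [← e1]; exact hg1, rfl⟩
    have hzmem : z ∈ (((T : Subgroup (YY ⧸ U)).comap π).map YY.subtype) := ⟨⟨z, hzY⟩, hzT, rfl⟩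
    rw [hym] at hmem
    refine ⟨m, hm, ?_, ?_, ?_⟩
    · rw [← hQM]
      refine mem_inf.mpr ⟨?_, ?_⟩
      · exact mul_mem hmem (inv_mem hzmem)
      · have h1 : m * z * m⁻¹ * z⁻¹ = m * (z * m⁻¹ * z) := by rw [hzi]; group
        rw [h1]
        exact mul_mem hm (hn _ (inv_mem hm))
    · intro h1
      apply hg2
      have h2 : m * z * m⁻¹ = z := by rwa [mul_inv_eq_one] at h1
      show π y * zb * (π y)⁻¹ = zb
      rw [e1]
      congr 1
      apply Subtype.ext
      show (y : G) * z * (y : G)⁻¹ = z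
      rw [hym, h2]
    · intro h1
      apply hg2
      have h2 : m * z * m⁻¹ = u * z := mul_inv_eq_iff_eq_mul.mp h1
      show π y * zb * (π y)⁻¹ = zb
      rw [e1]
      apply QuotientGroup.eq.mpr
      rw [hUmem]
      right
      show ((y : G) * z * (y : G)⁻¹)⁻¹ * z = u
      rw [hym, h2, mul_inv_rev, hzi]
      have hui : u⁻¹ = u := inv_eq_of_mul_eq_one_left huu
      rw [hui, hcz, mul_assoc, hzz, mul_one]

end H90.IcP7
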